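import Mathlib

/-!
# The numbers of elements of given order in the alternating groups of degree 4, 5, 6
-/

set_option autoImplicit false

namespace Cfsg.Agent.Lib.NSE.AltData

open Equiv Equiv.Perm

/-- The number of elements of order `k` in a group. -/
noncomputable def cnt (G : Type*) [Group G] (k : ℕ) : ℕ := Nat.card {g : G // orderOf g = k}

theorem card_alt (n k : ℕ) (Q : Perm (Fin n) → Prop) [DecidablePred Q]
    (hQ : ∀ g : Perm (Fin n), sign g = 1 → (orderOf g = k ↔ Q g)) :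
    cnt (alternatingGroup (Fin n)) k = (Finset.univ.filter (fun g : Perm (Fin n) => sign g = 1 ∧ Q g)).card := by
  unfold cnt
  rw [← Fintype.card_subtype, ← Nat.card_eq_fintype_card]
  apply Nat.card_congr
  refine ⟨fun g => ⟨g.1.1, ?_, ?_⟩, fun g => ⟨⟨g.1, ?_⟩, ?_⟩, ?_, ?_⟩
  · exact g.1.2
  · have h1 : sign g.1.1 = 1 := g.1.2
    have h2 : orderOf g.1.1 = k := by
      rw [Subgroup.orderOf_coe]
      exact g.2
    exact (hQ _ h1).1 h2
  · exact g.2.1
  · have h2 : orderOf g.1 = k := (hQ _ g.2.1).2 g.2.2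
    rw [← Subgroup.orderOf_coe]
    exact h2
  · intro g
    rfl
  · intro g
    rfl

theorem ord_prime (n p : ℕ) [Fact p.Prime] (g : Perm (Fin n)) : orderOf g = p ↔ g ^ p = 1 ∧ g ≠ 1 :=
  orderOf_eq_prime_iff

theorem ord_four (n : ℕ) (g : Perm (Fin n)) : orderOf g = 4 ↔ g ^ 4 = 1 ∧ g ^ 2 ≠ 1 := by
  constructor
  · intro h
    constructor
    · rw [← h]
      exact pow_orderOf_eq_one g
    · exact pow_ne_one_of_lt_orderOf (by norm_num) (by omega)
  · rintro ⟨h1, h2⟩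
    haveI : Fact (Nat.Prime 2) := ⟨Nat.prime_two⟩
    exact orderOf_eq_prime_pow (p := 2) (n := 1) (by simpa using h2) (by simpa using h1)

theorem ord_one (n : ℕ) (g : Perm (Fin n)) : orderOf g = 1 ↔ g = 1 := orderOf_eq_one_iff

/-- Images from counts. -/
theorem img_of_counts {A : Type*} [Group A] [Finite A] (tbl : List (ℕ × ℕ))
    (h1 : ∀ g : A, orderOf g ∈ tbl.map Prod.fst) (h2 : ∀ p ∈ tbl, cnt A p.1 = p.2)
    (h3 : ∀ p ∈ tbl, p.2 ≠ 0) :
    ((fun m : ℕ => Nat.card {g : A // orderOf g = m}) '' Set.range (orderOf : A → ℕ)) =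
      {v | v ∈ tbl.map Prod.snd} := by
  ext v
  simp only [Set.mem_image, Set.mem_range, Set.mem_ofPred_eq, List.mem_map]
  constructor
  · rintro ⟨m, ⟨g, rfl⟩, rfl⟩
    obtain ⟨p, hp, hp2⟩ := List.mem_map.1 (h1 g)
    refine ⟨p, hp, ?_⟩
    have := h2 p hp
    rw [← this, hp2]
    rfl
  · rintro ⟨p, hp, rfl⟩
    have h4 : Nat.card {g : A // orderOf g = p.1} ≠ 0 := by
      have := h2 p hp
      unfold cnt at this
      rw [this]
      exact h3 p hp
    have h5 : Nonempty {g : A // orderOf g = p.1} := by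
      by_contra h6
      rw [not_nonempty_iff] at h6
      exact h4 (Nat.card_of_isEmpty)
    obtain ⟨⟨g, hg⟩⟩ := h5
    exact ⟨p.1, ⟨g, hg⟩, h2 p hp⟩

set_option maxRecDepth 100000 in
set_option maxHeartbeats 4000000 in
theorem img4 : ((fun m : ℕ => Nat.card {g : alternatingGroup (Fin 4) // orderOf g = m}) ''
      Set.range (orderOf : alternatingGroup (Fin 4) → ℕ)) = {v | v ∈ [1, 3, 8]} := by
  haveI : Fact (Nat.Prime 2) := ⟨Nat.prime_two⟩
  haveI : Fact (Nat.Prime 3) := ⟨Nat.prime_three⟩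
  have := img_of_counts (A := alternatingGroup (Fin 4)) [(1, 1), (2, 3), (3, 8)] ?_ ?_ (by simp)
  · simpa using this
  · intro g
    have h : ∀ g : Perm (Fin 4), sign g = 1 → g = 1 ∨ (g ^ 2 = 1 ∧ g ≠ 1) ∨ (g ^ 3 = 1 ∧ g ≠ 1) := by
      decide +kernel
    have h2 := h g.1 g.2
    rw [← ord_one, ← ord_prime, ← ord_prime, Subgroup.orderOf_coe] at h2
    simpa using h2
  · have c1 : (Finset.univ.filter (fun g : Perm (Fin 4) => sign g = 1 ∧ g = 1)).card = 1 := by decide +kernel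
    have c2 : (Finset.univ.filter (fun g : Perm (Fin 4) => sign g = 1 ∧ g ^ 2 = 1 ∧ g ≠ 1)).card = 3 := by
      decide +kernel
    have c3 : (Finset.univ.filter (fun g : Perm (Fin 4) => sign g = 1 ∧ g ^ 3 = 1 ∧ g ≠ 1)).card = 8 := by
      decide +kernel
    intro p hp
    simp only [List.mem_cons, List.not_mem_nil, or_false] at hp
    rcases hp with rfl | rfl | rfl
    · show cnt _ 1 = 1
      rw [card_alt 4 1 (fun g => g = 1) (fun g _ => ord_one 4 g)]
      exact c1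
    · show cnt _ 2 = 3
      rw [card_alt 4 2 (fun g => g ^ 2 = 1 ∧ g ≠ 1) (fun g _ => ord_prime 4 2 g)]
      exact c2
    · show cnt _ 3 = 8
      rw [card_alt 4 3 (fun g => g ^ 3 = 1 ∧ g ≠ 1) (fun g _ => ord_prime 4 3 g)]
      exact c3

set_option maxRecDepth 100000 in
set_option maxHeartbeats 4000000 in
theorem img5 : ((fun m : ℕ => Nat.card {g : alternatingGroup (Fin 5) // orderOf g = m}) ''
      Set.range (orderOf : alternatingGroup (Fin 5) → ℕ)) = {v | v ∈ [1, 15, 20, 24]} := by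
  haveI : Fact (Nat.Prime 2) := ⟨Nat.prime_two⟩
  haveI : Fact (Nat.Prime 3) := ⟨Nat.prime_three⟩
  haveI : Fact (Nat.Prime 5) := ⟨Nat.prime_five⟩
  have := img_of_counts (A := alternatingGroup (Fin 5)) [(1, 1), (2, 15), (3, 20), (5, 24)] ?_ ?_ (by simp)
  · simpa using this
  · intro g
    have h : ∀ g : Perm (Fin 5), sign g = 1 → g = 1 ∨ (g ^ 2 = 1 ∧ g ≠ 1) ∨ (g ^ 3 = 1 ∧ g ≠ 1) ∨ (g ^ 5 = 1 ∧ g ≠ 1) := by
      decide +kernel
    have h2 := h g.1 g.2
    rw [← ord_one, ← ord_prime, ← ord_prime, ← ord_prime, Subgroup.orderOf_coe] at h2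
    simpa using h2
  · have c1 : (Finset.univ.filter (fun g : Perm (Fin 5) => sign g = 1 ∧ g = 1)).card = 1 := by decide +kernel
    have c2 : (Finset.univ.filter (fun g : Perm (Fin 5) => sign g = 1 ∧ g ^ 2 = 1 ∧ g ≠ 1)).card = 15 := by
      decide +kernel
    have c3 : (Finset.univ.filter (fun g : Perm (Fin 5) => sign g = 1 ∧ g ^ 3 = 1 ∧ g ≠ 1)).card = 20 := by
      decide +kernel
    have c5 : (Finset.univ.filter (fun g : Perm (Fin 5) => sign g = 1 ∧ g ^ 5 = 1 ∧ g ≠ 1)).card = 24 := by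
      decide +kernel
    intro p hp
    simp only [List.mem_cons, List.not_mem_nil, or_false] at hp
    rcases hp with rfl | rfl | rfl | rfl
    · show cnt _ 1 = 1
      rw [card_alt 5 1 (fun g => g = 1) (fun g _ => ord_one 5 g)]
      exact c1
    · show cnt _ 2 = 15
      rw [card_alt 5 2 (fun g => g ^ 2 = 1 ∧ g ≠ 1) (fun g _ => ord_prime 5 2 g)]
      exact c2
    · show cnt _ 3 = 20
      rw [card_alt 5 3 (fun g => g ^ 3 = 1 ∧ g ≠ 1) (fun g _ => ord_prime 5 3 g)]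
      exact c3
    · show cnt _ 5 = 24
      rw [card_alt 5 5 (fun g => g ^ 5 = 1 ∧ g ≠ 1) (fun g _ => ord_prime 5 5 g)]
      exact c5

set_option maxRecDepth 100000 in
set_option maxHeartbeats 4000000 in
theorem img6 : ((fun m : ℕ => Nat.card {g : alternatingGroup (Fin 6) // orderOf g = m}) ''
      Set.range (orderOf : alternatingGroup (Fin 6) → ℕ)) = {v | v ∈ [1, 45, 80, 90, 144]} := by
  haveI : Fact (Nat.Prime 2) := ⟨Nat.prime_two⟩
  haveI : Fact (Nat.Prime 3) := ⟨Nat.prime_three⟩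
  haveI : Fact (Nat.Prime 5) := ⟨Nat.prime_five⟩
  have := img_of_counts (A := alternatingGroup (Fin 6)) [(1, 1), (2, 45), (3, 80), (4, 90), (5, 144)] ?_ ?_ (by simp)
  · simpa using this
  · intro g
    have h : ∀ g : Perm (Fin 6), sign g = 1 → g = 1 ∨ (g ^ 2 = 1 ∧ g ≠ 1) ∨ (g ^ 3 = 1 ∧ g ≠ 1) ∨
        (g ^ 4 = 1 ∧ g ^ 2 ≠ 1) ∨ (g ^ 5 = 1 ∧ g ≠ 1) := by
      decide +kernel
    have h2 := h g.1 g.2
    rw [← ord_one, ← ord_prime, ← ord_prime, ← ord_four, ← ord_prime, Subgroup.orderOf_coe] at h2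
    simpa using h2
  · have c1 : (Finset.univ.filter (fun g : Perm (Fin 6) => sign g = 1 ∧ g = 1)).card = 1 := by decide +kernel
    have c2 : (Finset.univ.filter (fun g : Perm (Fin 6) => sign g = 1 ∧ g ^ 2 = 1 ∧ g ≠ 1)).card = 45 := by
      decide +kernel
    have c3 : (Finset.univ.filter (fun g : Perm (Fin 6) => sign g = 1 ∧ g ^ 3 = 1 ∧ g ≠ 1)).card = 80 := by
      decide +kernel
    have c4 : (Finset.univ.filter (fun g : Perm (Fin 6) => sign g = 1 ∧ g ^ 4 = 1 ∧ g ^ 2 ≠ 1)).card = 90 := by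
      decide +kernel
    have c5 : (Finset.univ.filter (fun g : Perm (Fin 6) => sign g = 1 ∧ g ^ 5 = 1 ∧ g ≠ 1)).card = 144 := by
      decide +kernel
    intro p hp
    simp only [List.mem_cons, List.not_mem_nil, or_false] at hp
    rcases hp with rfl | rfl | rfl | rfl | rfl
    · show cnt _ 1 = 1
      rw [card_alt 6 1 (fun g => g = 1) (fun g _ => ord_one 6 g)]
      exact c1
    · show cnt _ 2 = 45
      rw [card_alt 6 2 (fun g => g ^ 2 = 1 ∧ g ≠ 1) (fun g _ => ord_prime 6 2 g)]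
      exact c2
    · show cnt _ 3 = 80
      rw [card_alt 6 3 (fun g => g ^ 3 = 1 ∧ g ≠ 1) (fun g _ => ord_prime 6 3 g)]
      exact c3
    · show cnt _ 4 = 90
      rw [card_alt 6 4 (fun g => g ^ 4 = 1 ∧ g ^ 2 ≠ 1) (fun g _ => ord_four 6 g)]
      exact c4
    · show cnt _ 5 = 144
      rw [card_alt 6 5 (fun g => g ^ 5 = 1 ∧ g ≠ 1) (fun g _ => ord_prime 6 5 g)]
      exact c5

end Cfsg.Agent.Lib.NSE.AltData
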