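import Mathlib
import Cfsg.Agent.Lib.FG7.FrobeniusCount

/-!
# Counting elements of a given order

`cnt G m` is the number of elements of order `m`.  Basic divisibility facts: `φ m ∣ cnt G m`, the
Frobenius congruences, and the sharper congruence `p ∣ cnt G m + cnt G (p * m)` for `p ∤ m`.
-/

set_option autoImplicit false

namespace Cfsg.Agent.Lib.NSE.Basic

open Subgroup

universe u

/-- The number of elements of order `m`. -/
noncomputable def cnt (G : Type u) [Group G] (m : ℕ) : ℕ := Nat.card {g : G // orderOf g = m}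

variable {G : Type u} [Group G]

theorem cnt_one : cnt G 1 = 1 := by
  unfold cnt
  have : Nat.card {g : G // orderOf g = 1} = Nat.card {g : G // g = 1} := by
    refine Nat.card_congr (Equiv.subtypeEquivRight (fun g => ?_))
    rw [orderOf_eq_one_iff]
  rw [this, Nat.card_unique]

theorem cnt_pos_iff [Finite G] {m : ℕ} : 0 < cnt G m ↔ ∃ g : G, orderOf g = m := by
  unfold cnt
  rw [Nat.card_pos_iff]
  constructor
  · rintro ⟨⟨g, hg⟩, -⟩
    exact ⟨g, hg⟩
  · rintro ⟨g, hg⟩
    exact ⟨⟨⟨g, hg⟩⟩, inferInstance⟩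

theorem cnt_eq_filter [Fintype G] [DecidableEq G] (m : ℕ) :
    cnt G m = (Finset.univ.filter (fun g : G => orderOf g = m)).card := by
  unfold cnt
  rw [Nat.card_eq_fintype_card, Fintype.card_subtype]

/-- `φ m` divides the number of elements of order `m`. -/
theorem totient_dvd_cnt [Finite G] (m : ℕ) : Nat.totient m ∣ cnt G m := by
  classical
  haveI := Fintype.ofFinite G
  rw [cnt_eq_filter]
  rw [Finset.card_eq_sum_card_fiberwise (f := fun g : G => zpowers g)
    (t := (Finset.univ.filter (fun g : G => orderOf g = m)).image (fun g : G => zpowers g))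
    (fun x hx => by
      simpa using Finset.mem_image_of_mem (fun g : G => zpowers g) hx)]
  refine Finset.dvd_sum (fun C hC => ?_)
  obtain ⟨y, hy, rfl⟩ := Finset.mem_image.mp hC
  have hy' : orderOf y = m := by simpa using hy
  have hcard : Fintype.card (zpowers y) = m := by
    rw [← Nat.card_eq_fintype_card, Nat.card_zpowers, hy']
  have h1 : (Finset.univ.filter (fun a : zpowers y => orderOf a = m)).card = Nat.totient m :=
    IsCyclic.card_orderOf_eq_totient (α := zpowers y) (d := m) (by rw [hcard])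
  have h2 : ((Finset.univ.filter (fun g : G => orderOf g = m)).filter
      (fun g => zpowers g = zpowers y)).card
      = (Finset.univ.filter (fun a : zpowers y => orderOf a = m)).card := by
    symm
    refine Finset.card_bij (fun a _ => (a : G)) ?_ ?_ ?_
    · intro a ha
      have ha' : orderOf a = m := by simpa using ha
      have ha2 : orderOf (a : G) = m := by rw [Subgroup.orderOf_coe, ha']
      simp only [Finset.mem_filter, Finset.mem_univ, true_and]
      refine ⟨ha2, ?_⟩
      have hle : zpowers (a : G) ≤ zpowers y := by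
        rw [zpowers_le]; exact a.2
      refine Subgroup.eq_of_le_of_card_ge hle ?_
      rw [Nat.card_zpowers, Nat.card_zpowers, ha2, hy']
    · intro a _ b _ hab
      exact Subtype.ext hab
    · intro g hg
      simp only [Finset.mem_filter, Finset.mem_univ, true_and] at hg
      obtain ⟨hg1, hg2⟩ := hg
      have hmem : g ∈ zpowers y := by
        rw [← hg2]; exact mem_zpowers g
      refine ⟨⟨g, hmem⟩, ?_, rfl⟩
      simp only [Finset.mem_filter, Finset.mem_univ, true_and]
      rw [← Subgroup.orderOf_coe] 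
      exact hg1
  exact (h1 ▸ h2).symm ▸ dvd_rfl

theorem sum_cnt_divisors [Finite G] {M : ℕ} (hM : 0 < M) :
    ∑ d ∈ M.divisors, cnt G d = Nat.card {x : G // x ^ M = 1} := by
  classical
  haveI := Fintype.ofFinite G
  have h := sum_card_orderOf_eq_card_pow_eq_one (G := G) hM.ne'
  rw [Nat.card_eq_fintype_card, Fintype.card_subtype, ← h]
  refine Finset.sum_congr rfl (fun d _ => ?_)
  rw [cnt_eq_filter]

/-- Frobenius's theorem in terms of `cnt`. -/
theorem gcd_dvd_sum_cnt [Finite G] {M : ℕ} (hM : 0 < M) :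
    M.gcd (Nat.card G) ∣ ∑ d ∈ M.divisors, cnt G d := by
  rw [sum_cnt_divisors hM]
  exact Cfsg.Agent.Lib.FG7.FrobeniusCount.gcd_dvd_card_pow_eq (K := G) (Subgroup.one_mem _) M

theorem sum_cnt_card [Finite G] : ∑ d ∈ (Nat.card G).divisors, cnt G d = Nat.card G := by
  rw [sum_cnt_divisors Nat.card_pos]
  have : Nat.card {x : G // x ^ Nat.card G = 1} = Nat.card G :=
    Nat.card_congr (Equiv.subtypeUnivEquiv (fun x => pow_card_eq_one'))
  rw [this]

theorem cnt_eq_zero_of_not_dvd [Finite G] {m : ℕ} (h : ¬ m ∣ Nat.card G) : cnt G m = 0 := by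
  by_contra h0
  obtain ⟨g, hg⟩ := cnt_pos_iff.mp (Nat.pos_of_ne_zero h0)
  exact h (hg ▸ orderOf_dvd_natCard g)

/-- Total count bound. -/
theorem sum_cnt_le [Finite G] (s : Finset ℕ) : ∑ m ∈ s, cnt G m ≤ Nat.card G := by
  classical
  calc ∑ m ∈ s, cnt G m = ∑ m ∈ s.filter (· ∈ (Nat.card G).divisors), cnt G m := by
        symm
        refine Finset.sum_filter_of_ne (fun m _ hm => ?_)
        rw [Nat.mem_divisors]
        refine ⟨?_, Nat.card_pos.ne'⟩
        by_contra h
        exact hm (cnt_eq_zero_of_not_dvd h)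
    _ ≤ ∑ m ∈ (Nat.card G).divisors, cnt G m := by
        refine Finset.sum_le_sum_of_subset (fun m hm => (Finset.mem_filter.mp hm).2)
    _ = Nat.card G := sum_cnt_card

theorem cnt_pos_of_dvd [Finite G] {m d : ℕ} (h : 0 < cnt G m) (hd : d ∣ m) : 0 < cnt G d := by
  obtain ⟨g, hg⟩ := cnt_pos_iff.mp h
  refine cnt_pos_iff.mpr ⟨g ^ (orderOf g / d), ?_⟩
  exact orderOf_pow_orderOf_div (orderOf_pos g).ne' (hg ▸ hd)

theorem cnt_prime_pos [Finite G] {p : ℕ} (hp : p.Prime) (h : p ∣ Nat.card G) : 0 < cnt G p := by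
  haveI := Fact.mk hp
  obtain ⟨x, hx⟩ := exists_prime_orderOf_dvd_card' p h
  exact cnt_pos_iff.mpr ⟨x, hx⟩

/-- The divisors of `p * m`, `p ∤ m`. -/
theorem sum_divisors_prime_mul (f : ℕ → ℕ) {p m : ℕ} (hp : p.Prime) (hm : ¬ p ∣ m) :
    ∑ d ∈ (p * m).divisors, f d = ∑ d ∈ m.divisors, (f d + f (p * d)) := by
  classical
  have hm0 : m ≠ 0 := fun h => hm (h ▸ dvd_zero p)
  have hset : (p * m).divisors = m.divisors ∪ m.divisors.image (fun d => p * d) := by
    ext d
    simp only [Nat.mem_divisors, Finset.mem_union, Finset.mem_image]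
    constructor
    · rintro ⟨h1, -⟩
      obtain ⟨d₁, d₂, h₁, h₂, rfl⟩ := (Nat.dvd_mul).1 h1
      rcases (Nat.dvd_prime hp).1 h₁ with rfl | rfl
      · left
        rw [one_mul]
        exact ⟨h₂, hm0⟩
      · right
        exact ⟨d₂, ⟨h₂, hm0⟩, rfl⟩
    · rintro (⟨h1, -⟩ | ⟨d', ⟨h1, -⟩, rfl⟩)
      · exact ⟨Dvd.dvd.mul_left h1 p, mul_ne_zero hp.ne_zero hm0⟩
      · exact ⟨Nat.mul_dvd_mul_left p h1, mul_ne_zero hp.ne_zero hm0⟩
  have hdisj : Disjoint m.divisors (m.divisors.image (fun d => p * d)) := by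
    rw [Finset.disjoint_left]
    intro d hd hd'
    obtain ⟨d', -, rfl⟩ := Finset.mem_image.mp hd'
    have := (Nat.mem_divisors.mp hd).1
    exact hm ((Dvd.intro _ rfl).trans this)
  rw [hset, Finset.sum_union hdisj, Finset.sum_image, Finset.sum_add_distrib]
  intro x _ y _ hxy
  exact Nat.eq_of_mul_eq_mul_left hp.pos hxy

/-- The key congruence. -/
theorem prime_dvd_cnt_add [Finite G] {p : ℕ} (hp : p.Prime) (hpN : p ∣ Nat.card G) :
    ∀ m : ℕ, ¬ p ∣ m → p ∣ cnt G m + cnt G (p * m) := by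
  intro m
  induction m using Nat.strong_induction_on with
  | _ m ih =>
    intro hm
    have hm0 : m ≠ 0 := fun h => hm (h ▸ dvd_zero p)
    have h1 : p ∣ (p * m).gcd (Nat.card G) := Nat.dvd_gcd (Dvd.intro _ rfl) hpN
    have h2 := h1.trans (gcd_dvd_sum_cnt (G := G) (M := p * m)
      (Nat.mul_pos hp.pos (Nat.pos_of_ne_zero hm0)))
    rw [sum_divisors_prime_mul _ hp hm, ← Finset.sum_erase_add _ _
      (Nat.mem_divisors_self m hm0)] at h2
    refine (Nat.dvd_add_right ?_).mp h2
    refine Finset.dvd_sum (fun d hd => ?_)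
    obtain ⟨hd1, hd2⟩ := Finset.mem_erase.mp hd
    have hdm := (Nat.mem_divisors.mp hd2).1
    exact ih d (lt_of_le_of_ne (Nat.le_of_dvd (Nat.pos_of_ne_zero hm0) hdm) hd1)
      (fun h => hm (h.trans hdm))

theorem prime_dvd_totient {p m : ℕ} (hp : p.Prime) (h : p * p ∣ m) (hm : m ≠ 0) :
    p ∣ Nat.totient m := by
  have h1 := Nat.totient_dvd_of_dvd h
  have h2 : Nat.totient (p * p) = p * (p - 1) := by
    rw [← pow_two, Nat.totient_prime_pow hp (by norm_num)]
    simp
  rw [h2] at h1
  exact (Dvd.intro _ rfl).trans h1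

theorem prime_dvd_cnt_of_sq [Finite G] {p m : ℕ} (hp : p.Prime) (h : p * p ∣ m) (hm : m ≠ 0) :
    p ∣ cnt G m :=
  (prime_dvd_totient hp h hm).trans (totient_dvd_cnt m)

theorem even_cnt [Finite G] {m : ℕ} (hm : 3 ≤ m) : 2 ∣ cnt G m :=
  (Nat.totient_even (by omega)).two_dvd.trans (totient_dvd_cnt m)

end Cfsg.Agent.Lib.NSE.Basic
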