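import Mathlib

set_option autoImplicit false

namespace Cfsg.Agent.Lib.NSE.Search

/-! ### A reflective search -/

/-- Sum of the values of the entries whose key divides `k`. -/
def sumA : List (ℕ × ℕ) → ℕ → ℕ
  | [], _ => 0
  | p :: a, k => (if k % p.1 = 0 then p.2 else 0) + sumA a k

/-- The depth first search over the candidate orders. -/
def go (leaf : List (ℕ × ℕ) → ℕ → Bool) :
    List (ℕ × List ℕ × List ℕ) → List (ℕ × ℕ) → ℕ → Bool
  | [], a, s => leaf a s
  | e :: ds, a, s =>
      go leaf ds a s &&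
      e.2.1.all (fun v =>
        !(e.2.2.all (fun q => a.any (fun p => p.1 == q))) ||
        !((1 + sumA a e.1 + v) % e.1 == 0) ||
        go leaf ds ((e.1, v) :: a) (s + v))

/-- The test at a leaf of the search. -/
def leafT (vs prs tests : List ℕ) (target : List (ℕ × ℕ)) (Nt : ℕ) (a : List (ℕ × ℕ)) (s : ℕ) : Bool :=
  !(a.all (fun p => s % p.1 == 0)) ||
  !(vs.all (fun v => v == 1 || a.any (fun p => p.2 == v))) ||
  !(prs.all (fun p => !(s % p == 0) || a.any (fun q => q.1 == p))) ||
  !(tests.all (fun k => !(s % k == 0) || (1 + sumA a k) % k == 0)) ||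
  (decide (a = target) && s == Nt)

/-- The association list of the non-zero values of `M` on `P`. -/
def aOf (M : ℕ → ℕ) : List ℕ → List (ℕ × ℕ)
  | [] => []
  | e :: P => if M e = 0 then aOf M P else (e, M e) :: aOf M P

theorem mem_aOf {M : ℕ → ℕ} {P : List ℕ} {p : ℕ × ℕ} : p ∈ aOf M P ↔ p.1 ∈ P ∧ p.2 = M p.1 ∧ M p.1 ≠ 0 := by
  induction P with
  | nil => simp [aOf]
  | cons e P ih =>
    simp only [aOf]
    by_cases h : M e = 0
    · rw [if_pos h, ih]
      constructor
      · rintro ⟨h1, h2, h3⟩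
        exact ⟨List.mem_cons_of_mem _ h1, h2, h3⟩
      · rintro ⟨h1, h2, h3⟩
        rcases List.mem_cons.1 h1 with h4 | h4
        · exact absurd (h4 ▸ h) h3
        · exact ⟨h4, h2, h3⟩
    · rw [if_neg h, List.mem_cons, ih]
      constructor
      · rintro (rfl | ⟨h1, h2, h3⟩)
        · exact ⟨List.mem_cons_self, rfl, h⟩
        · exact ⟨List.mem_cons_of_mem _ h1, h2, h3⟩
      · rintro ⟨h1, h2, h3⟩
        rcases List.mem_cons.1 h1 with h4 | h4
        · left
          apply Prod.ext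
          · exact h4
          · rw [h2, h4]
        · exact Or.inr ⟨h4, h2, h3⟩

theorem sumA_aOf (M : ℕ → ℕ) (P : List ℕ) (k : ℕ) :
    sumA (aOf M P) k = ((P.filter (fun e => k % e = 0)).map M).sum := by
  induction P with
  | nil => simp [aOf, sumA]
  | cons e P ih =>
    simp only [aOf]
    by_cases h : M e = 0
    · rw [if_pos h, ih, List.filter_cons]
      by_cases h2 : k % e = 0
      · simp [h, h2]
      · simp [h2]
    · rw [if_neg h, sumA, ih, List.filter_cons]
      by_cases h2 : k % e = 0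
      · simp [h2]
      · simp [h2]

/-- The sum over the divisors as a search sum. -/
theorem sum_divisors {M : ℕ → ℕ} {P : List ℕ} {k : ℕ} (hk : k ≠ 0) (hnd : P.Nodup) (h1 : 1 ∉ P)
    (hcov : ∀ e, e ∣ k → e ≠ 1 → M e ≠ 0 → e ∈ P) :
    ∑ e ∈ k.divisors, M e = M 1 + sumA (aOf M P) k := by
  classical
  rw [sumA_aOf]
  have hnd2 : (P.filter (fun e => k % e = 0)).Nodup := hnd.filter _
  rw [← List.sum_toFinset _ hnd2]
  have h3 : (1 : ℕ) ∉ (P.filter (fun e => k % e = 0)).toFinset := by
    intro h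
    rw [List.mem_toFinset] at h
    exact h1 (List.mem_of_mem_filter h)
  rw [← Finset.sum_insert h3]
  symm
  apply Finset.sum_subset
  · intro e he
    rw [Finset.mem_insert, List.mem_toFinset] at he
    rw [Nat.mem_divisors]
    rcases he with rfl | he
    · exact ⟨one_dvd _, hk⟩
    · have : k % e = 0 := by simpa using (List.mem_filter.1 he).2
      exact ⟨Nat.dvd_of_mod_eq_zero this, hk⟩
  · intro e he he2
    by_contra h0
    rw [Nat.mem_divisors] at he
    rw [Finset.mem_insert, List.mem_toFinset, not_or] at he2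
    apply he2.2
    have h5 : e ≠ 1 := he2.1
    have h6 := hcov e he.1 h5 h0
    apply List.mem_filter.2
    refine ⟨h6, ?_⟩
    simpa using Nat.mod_eq_zero_of_dvd he.1

/-- The facts on the function counting the elements of given order. -/
structure Facts (M : ℕ → ℕ) (N : ℕ) (vs : List ℕ) : Prop where
  h1 : M 1 = 1
  hN : N ≠ 0
  hv : ∀ k, M k ≠ 0 → M k ∈ vs
  hdown : ∀ k d, d ∣ k → M k ≠ 0 → M d ≠ 0
  hF : ∀ k, k ∣ N → k ∣ ∑ e ∈ k.divisors, M e
  hdiv : ∀ k, M k ≠ 0 → k ∣ N
  hS : N = ∑ e ∈ N.divisors, M e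
  hC : ∀ p : ℕ, p.Prime → p ∣ N → M p ≠ 0
  hsurj : ∀ v ∈ vs, ∃ k, M k = v
  htot : ∀ k, k.totient ∣ M k

variable {M : ℕ → ℕ} {N : ℕ} {vs : List ℕ}

/-- Soundness of the search. -/
theorem go_sound (hf : Facts M N vs) (leaf : List (ℕ × ℕ) → ℕ → Bool) :
    ∀ (ds : List (ℕ × List ℕ × List ℕ)) (P : List ℕ),
      (ds.map Prod.fst).Pairwise (· < ·) →
      (P ++ ds.map Prod.fst).Nodup →
      (1 ∉ P ++ ds.map Prod.fst) →
      (∀ e, e ≠ 1 → M e ≠ 0 → e ∈ P ++ ds.map Prod.fst) →
      (∀ e ∈ ds, M e.1 ≠ 0 → M e.1 ∈ e.2.1) →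
      (∀ e ∈ ds, ∀ q ∈ e.2.2, q ∣ e.1 ∧ q ≠ e.1 ∧ q ≠ 1) →
      go leaf ds (aOf M P) (1 + (P.map M).sum) = true →
      leaf (aOf M ((ds.map Prod.fst).reverse ++ P))
        (1 + (((ds.map Prod.fst).reverse ++ P).map M).sum) = true := by
  intro ds
  induction ds with
  | nil =>
    intro P _ _ _ _ _ _ h
    simpa [go] using h
  | cons e ds ih =>
    rintro P hsort hnd h1 hcov hcand hq hgo
    obtain ⟨d, cs, qs⟩ := e
    simp only [List.map_cons, List.pairwise_cons] at hsort
    have hnd' : ((d :: P) ++ ds.map Prod.fst).Nodup := by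
      have : ((d :: P) ++ ds.map Prod.fst).Perm (P ++ d :: ds.map Prod.fst) :=
        (List.perm_middle).symm
      exact this.nodup_iff.2 (by simpa using hnd)
    have h1' : 1 ∉ (d :: P) ++ ds.map Prod.fst := by
      intro h
      apply h1
      have : ((d :: P) ++ ds.map Prod.fst).Perm (P ++ d :: ds.map Prod.fst) :=
        (List.perm_middle).symm
      simpa using this.mem_iff.1 h
    have hcov' : ∀ e, e ≠ 1 → M e ≠ 0 → e ∈ (d :: P) ++ ds.map Prod.fst := by
      intro x hx hx2
      have := hcov x hx hx2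
      have h2 : ((d :: P) ++ ds.map Prod.fst).Perm (P ++ d :: ds.map Prod.fst) :=
        (List.perm_middle).symm
      exact h2.mem_iff.2 (by simpa using this)
    have hcand' : ∀ e ∈ ds, M e.1 ≠ 0 → M e.1 ∈ e.2.1 :=
      fun x hx => hcand x (List.mem_cons_of_mem _ hx)
    have hq' : ∀ e ∈ ds, ∀ q ∈ e.2.2, q ∣ e.1 ∧ q ≠ e.1 ∧ q ≠ 1 :=
      fun x hx => hq x (List.mem_cons_of_mem _ hx)
    have hgo2 := hgo
    simp only [go, Bool.and_eq_true, List.all_eq_true] at hgo2
    have key := ih (d :: P) hsort.2 hnd' h1' hcov' hcand' hq'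
    have hgoal : (((d, cs, qs) :: ds).map Prod.fst).reverse ++ P
        = (ds.map Prod.fst).reverse ++ (d :: P) := by
      simp
    rw [hgoal]
    apply key
    by_cases hd : M d = 0
    · have h2 : aOf M (d :: P) = aOf M P := by simp [aOf, hd]
      have h3 : (1 + ((d :: P).map M).sum) = 1 + (P.map M).sum := by simp [hd]
      rw [h2, h3]
      exact hgo2.1
    · have hvd := hcand (d, cs, qs) List.mem_cons_self hd
      have h4 := hgo2.2 (M d) hvd
      have h2 : aOf M (d :: P) = (d, M d) :: aOf M P := by simp [aOf, hd]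
      have h3 : (1 + ((d :: P).map M).sum) = 1 + (P.map M).sum + M d := by
        simp
        omega
      rw [h2, h3]
      -- the membership of the divisors
      have hd0 : d ≠ 0 := by
        rintro rfl
        exact hf.hN (Nat.eq_zero_of_zero_dvd (hf.hdiv 0 hd))
      have hcovd : ∀ x, x ∣ d → x ≠ 1 → M x ≠ 0 → x ∈ d :: P := by
        intro x hx hx1 hx2
        have h5 := hcov x hx1 hx2
        rw [List.map_cons] at h5
        rcases List.mem_append.1 h5 with h6 | h6
        · exact List.mem_cons_of_mem _ h6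
        · rcases List.mem_cons.1 h6 with h7 | h7
          · rw [h7]
            exact List.mem_cons_self
          · exfalso
            have h8 := hsort.1 x h7
            have h9 := Nat.le_of_dvd (Nat.pos_of_ne_zero hd0) hx
            omega
      have hcheck1 : (qs.all (fun q => (aOf M P).any (fun p => p.1 == q))) = true := by
        rw [List.all_eq_true]
        intro q hq1
        obtain ⟨h5, h6, h7⟩ := hq (d, cs, qs) List.mem_cons_self q hq1
        have h8 : M q ≠ 0 := hf.hdown d q h5 hd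
        have h9 := hcovd q h5 h7 h8
        rcases List.mem_cons.1 h9 with h10 | h10
        · exact absurd h10 h6
        · rw [List.any_eq_true]
          refine ⟨(q, M q), mem_aOf.2 ⟨h10, rfl, h8⟩, ?_⟩
          simp
      have hcheck2 : ((1 + sumA (aOf M P) d + M d) % d == 0) = true := by
        have h5 := hf.hF d (hf.hdiv d hd)
        have hnd3 : (d :: P).Nodup := hnd'.sublist (List.sublist_append_left _ _)
        have h1'' : 1 ∉ d :: P := fun h => h1' (List.mem_append_left _ h)
        rw [sum_divisors hd0 hnd3 h1'' hcovd, hf.h1, h2, sumA] at h5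
        simp only [Nat.mod_self, if_true] at h5
        have h6 : 1 + sumA (aOf M P) d + M d = 1 + (M d + sumA (aOf M P) d) := by omega
        rw [h6]
        simpa using Nat.mod_eq_zero_of_dvd h5
      simp only [hcheck1, hcheck2, Bool.not_true, Bool.false_or] at h4
      exact h4

theorem sum_filter (P : List ℕ) (f : ℕ → ℕ) (q : ℕ → Bool) (h : ∀ e ∈ P, q e = false → f e = 0) :
    ((P.filter q).map f).sum = (P.map f).sum := by
  induction P with
  | nil => rfl
  | cons e P ih =>
    have h2 := ih (fun x hx => h x (List.mem_cons_of_mem _ hx))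
    rw [List.filter_cons]
    by_cases h3 : q e = true
    · simp [h3, h2]
    · have h4 : q e = false := by simpa using h3
      simp [h4, h2, h _ List.mem_cons_self h4]

/-- The main arithmetic theorem: a completed search determines everything. -/
theorem search_main (hf : Facts M N vs) (KC : List (ℕ × List ℕ × List ℕ)) (prs tests : List ℕ)
    (target : List (ℕ × ℕ)) (Nt : ℕ) (h0 : 0 ∉ vs)
    (hsort : (KC.map Prod.fst).Pairwise (· < ·))
    (h1K : 1 ∉ KC.map Prod.fst)
    (hK : ∀ e, e ≠ 1 → M e ≠ 0 → e ∈ KC.map Prod.fst)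
    (hcand : ∀ e ∈ KC, M e.1 ≠ 0 → M e.1 ∈ e.2.1)
    (hq : ∀ e ∈ KC, ∀ q ∈ e.2.2, q ∣ e.1 ∧ q ≠ e.1 ∧ q ≠ 1)
    (hprs : ∀ p ∈ prs, p.Prime)
    (hsearch : go (leafT vs prs tests target Nt) KC [] 1 = true) :
    N = Nt ∧ (∀ p ∈ target, M p.1 = p.2) ∧ (∀ k, k ≠ 1 → M k ≠ 0 → ∃ v, (k, v) ∈ target) := by
  have hnd : (KC.map Prod.fst).Nodup := hsort.imp (fun h => Nat.ne_of_lt h)
  have h := go_sound hf (leafT vs prs tests target Nt) KC [] hsort (by simpa using hnd)
    (by simpa using h1K) (by simpa using hK) hcand hq (by simpa [aOf] using hsearch)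
  simp only [List.append_nil] at h
  set P := (KC.map Prod.fst).reverse with hP
  have hndP : P.Nodup := List.nodup_reverse.2 hnd
  have h1P : 1 ∉ P := by
    rw [hP, List.mem_reverse]
    exact h1K
  have hcovP : ∀ e, e ≠ 1 → M e ≠ 0 → e ∈ P := by
    intro e he he2
    rw [hP, List.mem_reverse]
    exact hK e he he2
  -- the sum is the order
  have hs : 1 + (P.map M).sum = N := by
    have h2 := sum_divisors (M := M) (P := P) (k := N) hf.hN hndP h1P (fun e _ he he2 => hcovP e he he2)
    rw [← hf.hS, hf.h1, sumA_aOf] at h2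
    rw [h2, sum_filter]
    intro e _ he
    by_contra h3
    have h4 := Nat.mod_eq_zero_of_dvd (hf.hdiv e h3)
    simp [h4] at he
  rw [hs] at h
  have c1 : ((aOf M P).all (fun p => N % p.1 == 0)) = true := by
    rw [List.all_eq_true]
    intro p hp
    have h3 := (mem_aOf.1 hp).2.2
    simpa using Nat.mod_eq_zero_of_dvd (hf.hdiv _ h3)
  have c2 : (vs.all (fun v => v == 1 || (aOf M P).any (fun p => p.2 == v))) = true := by
    rw [List.all_eq_true]
    intro v hv
    by_cases hv1 : v = 1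
    · simp [hv1]
    · obtain ⟨k, hk⟩ := hf.hsurj v hv
      have hk1 : k ≠ 1 := by
        rintro rfl
        rw [hf.h1] at hk
        exact hv1 hk.symm
      have hk0 : M k ≠ 0 := by
        rw [hk]
        rintro rfl
        exact h0 hv
      rw [Bool.or_eq_true, List.any_eq_true]
      right
      refine ⟨(k, M k), mem_aOf.2 ⟨hcovP k hk1 hk0, rfl, hk0⟩, ?_⟩
      simp [hk]
  have c3 : (prs.all (fun p => !(N % p == 0) || (aOf M P).any (fun q => q.1 == p))) = true := by
    rw [List.all_eq_true]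
    intro p hp
    by_cases h3 : N % p = 0
    · have h4 := hf.hC p (hprs p hp) (Nat.dvd_of_mod_eq_zero h3)
      have h5 : p ≠ 1 := (hprs p hp).one_lt.ne'
      rw [Bool.or_eq_true, List.any_eq_true]
      right
      refine ⟨(p, M p), mem_aOf.2 ⟨hcovP p h5 h4, rfl, h4⟩, ?_⟩
      simp
    · simp [h3]
  have c4 : (tests.all (fun k => !(N % k == 0) || (1 + sumA (aOf M P) k) % k == 0)) = true := by
    rw [List.all_eq_true]
    intro k _
    by_cases h3 : N % k = 0
    · have h4 : k ∣ N := Nat.dvd_of_mod_eq_zero h3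
      have h5 : k ≠ 0 := by
        rintro rfl
        exact hf.hN (Nat.eq_zero_of_zero_dvd h4)
      have h6 := hf.hF k h4
      rw [sum_divisors h5 hndP h1P (fun e _ he he2 => hcovP e he he2), hf.h1] at h6
      have h7 := Nat.mod_eq_zero_of_dvd h6
      simp [h7]
    · simp [h3]
  simp only [leafT, c1, c2, c3, c4, Bool.not_true, Bool.false_or, Bool.and_eq_true, decide_eq_true_eq,
    beq_iff_eq] at h
  obtain ⟨h3, h4⟩ := h
  refine ⟨h4, ?_, ?_⟩
  · intro p hp
    rw [← h3] at hp
    exact (mem_aOf.1 hp).2.1.symm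
  · intro k hk hk0
    refine ⟨M k, ?_⟩
    rw [← h3]
    exact mem_aOf.2 ⟨hcovP k hk hk0, rfl, hk0⟩

/-! ### The data -/

def KC4 : List (ℕ × List ℕ × List ℕ) :=
  [(2, [1, 3, 8], []),
  (3, [8], []),
  (4, [8], [2]),
  (6, [8], [2, 3]),
  (8, [8], [4]),
  (12, [8], [4, 6]),
  (16, [8], [8]),
  (24, [8], [8, 12])]
def KC5 : List (ℕ × List ℕ × List ℕ) :=
  [(2, [1, 15, 20, 24], []),
  (3, [20, 24], []),
  (4, [20, 24], [2]),
  (5, [20, 24], []),
  (6, [20, 24], [2, 3]),
  (8, [20, 24], [4]),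
  (9, [24], [3]),
  (10, [20, 24], [2, 5]),
  (12, [20, 24], [4, 6]),
  (15, [24], [3, 5]),
  (16, [24], [8]),
  (18, [24], [6, 9]),
  (20, [24], [4, 10]),
  (24, [24], [8, 12]),
  (25, [20], [5]),
  (30, [24], [6, 10, 15]),
  (36, [24], [12, 18]),
  (45, [24], [9, 15]),
  (50, [20], [10, 25]),
  (72, [24], [24, 36]),
  (90, [24], [18, 30, 45])]
def KC6 : List (ℕ × List ℕ × List ℕ) :=
  [(2, [1, 45, 80, 90, 144], []),
  (3, [80, 90, 144], []),
  (4, [80, 90, 144], [2]),
  (5, [80, 144], []),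
  (6, [80, 90, 144], [2, 3]),
  (7, [90, 144], []),
  (8, [80, 144], [4]),
  (9, [90, 144], [3]),
  (10, [80, 144], [2, 5]),
  (12, [80, 144], [4, 6]),
  (14, [90, 144], [2, 7]),
  (15, [80, 144], [3, 5]),
  (16, [80, 144], [8]),
  (18, [90, 144], [6, 9]),
  (20, [80, 144], [4, 10]),
  (21, [144], [3, 7]),
  (24, [80, 144], [8, 12]),
  (25, [80], [5]),
  (27, [90, 144], [9]),
  (28, [144], [4, 14]),
  (30, [80, 144], [6, 10, 15]),
  (32, [80, 144], [16]),
  (35, [144], [5, 7]),
  (36, [144], [12, 18]),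
  (40, [80, 144], [8, 20]),
  (42, [144], [6, 14, 21]),
  (45, [144], [9, 15]),
  (48, [80, 144], [16, 24]),
  (50, [80], [10, 25]),
  (54, [90, 144], [18, 27]),
  (56, [144], [8, 28]),
  (60, [80, 144], [12, 20, 30]),
  (63, [144], [9, 21]),
  (70, [144], [10, 14, 35]),
  (72, [144], [24, 36]),
  (75, [80], [15, 25]),
  (84, [144], [12, 28, 42]),
  (90, [144], [18, 30, 45]),
  (100, [80], [20, 50]),
  (105, [144], [15, 21, 35]),
  (108, [144], [36, 54]),
  (112, [144], [16, 56]),
  (126, [144], [18, 42, 63]),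
  (135, [144], [27, 45]),
  (140, [144], [20, 28, 70]),
  (144, [144], [48, 72]),
  (150, [80], [30, 50, 75]),
  (168, [144], [24, 56, 84]),
  (180, [144], [36, 60, 90]),
  (200, [80], [40, 100]),
  (210, [144], [30, 42, 70, 105]),
  (216, [144], [72, 108]),
  (252, [144], [36, 84, 126]),
  (270, [144], [54, 90, 135]),
  (300, [80], [60, 100, 150]),
  (315, [144], [45, 63, 105]),
  (432, [144], [144, 216]),
  (504, [144], [72, 168, 252]),
  (540, [144], [108, 180, 270]),
  (630, [144], [90, 126, 210, 315])]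

theorem search4 : go (leafT [1, 3, 8] [2, 3] (KC4.map Prod.fst) [(3, 8), (2, 3)] 12) KC4 [] 1 = true := by
  decide +kernel

theorem search5 : go (leafT [1, 15, 20, 24] [2, 3, 5, 7] ((KC5.map Prod.fst) ++ [27]) [(5, 24), (3, 20), (2, 15)] 60)
    KC5 [] 1 = true := by
  decide +kernel

theorem search6 : go (leafT [1, 45, 80, 90, 144] [2, 3, 5, 7, 11, 13, 17, 19, 23] (KC6.map Prod.fst)
    [(5, 144), (4, 90), (3, 80), (2, 45)] 360) KC6 [] 1 = true := by
  decide +kernel

end Cfsg.Agent.Lib.NSE.Search
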