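import Mathlib
import Cfsg.Agent.Lib.NSE.Basic
import Cfsg.Agent.S0144

/-!
# Groups with three values of the element-order counting function are solvable
-/

set_option autoImplicit false

namespace Cfsg.Agent.Lib.NSE.ThreeVals

open Cfsg.Agent.Lib.NSE.Basic

universe u

variable {G : Type u} [Group G]

/-- A natural number with all prime factors in `{r, s}`. -/
theorem exists_pow_mul_pow {n r s : ℕ} (hn : n ≠ 0) (hr : r.Prime)
    (h : ∀ t : ℕ, t.Prime → t ∣ n → t = r ∨ t = s) (hs : s.Prime) :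
    ∃ i j : ℕ, n = r ^ i * s ^ j := by
  have h1 : r ^ n.factorization r * (n / r ^ n.factorization r) = n :=
    Nat.ordProj_mul_ordCompl_eq_self n r
  have h2 : n / r ^ n.factorization r ≠ 0 := (Nat.ordCompl_pos r hn).ne'
  refine ⟨n.factorization r, (n / r ^ n.factorization r).primeFactorsList.length, ?_⟩
  conv_lhs => rw [← h1]
  congr 1
  refine Nat.eq_prime_pow_of_unique_prime_dvd h2 (fun {t} ht htd => ?_)
  have hnd : n / r ^ n.factorization r ∣ n := Nat.ordCompl_dvd n r
  rcases h t ht (htd.trans hnd) with rfl | rfl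
  · exact absurd htd (Nat.not_dvd_ordCompl ht hn)
  · rfl

theorem solvable_of_primes {r s : ℕ} (hr : r.Prime) (hs : s.Prime) [Finite G]
    (h : ∀ t : ℕ, t.Prime → t ∣ Nat.card G → t = r ∨ t = s) : Group.IsSolvable G := by
  obtain ⟨i, j, hij⟩ := exists_pow_mul_pow Nat.card_pos.ne' hr h hs
  exact Cfsg.Agent.S0144.result r s i j hr hs hij

/-- A group of order `2 m` with a unique involution whose quotient is solvable. -/
theorem solvable_of_two_mul {r s : ℕ} (hr : r.Prime) (hs : s.Prime) [Finite G]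
    (h1 : cnt G 2 = 1) (h4 : ¬ 4 ∣ Nat.card G)
    (h : ∀ t : ℕ, t.Prime → t ≠ 2 → t ∣ Nat.card G → t = r ∨ t = s) : Group.IsSolvable G := by
  obtain ⟨z, hz⟩ := cnt_pos_iff.mp (by rw [h1]; exact one_pos : 0 < cnt G 2)
  have huniq : ∀ y : G, orderOf y = 2 → y = z := by
    intro y hy
    have : Nat.card {g : G // orderOf g = 2} = 1 := h1
    have hsub := (Nat.card_eq_one_iff_unique.mp this).1
    have := hsub.elim ⟨y, hy⟩ ⟨z, hz⟩
    exact congrArg Subtype.val this
  have hcentral : ∀ g : G, g * z * g⁻¹ = z := by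
    intro g
    apply huniq
    have : orderOf (g * z * g⁻¹) = orderOf z := by
      have := orderOf_injective (MulAut.conj g).toMonoidHom (MulAut.conj g).injective z
      simpa [MulAut.conj_apply] using this
    rw [this, hz]
  let H : Subgroup G := Subgroup.zpowers z
  haveI hHn : H.Normal := by
    constructor
    intro n hn g
    obtain ⟨k, rfl⟩ := Subgroup.mem_zpowers_iff.mp hn
    rw [← MulAut.conj_apply, map_zpow, MulAut.conj_apply, hcentral]
    exact Subgroup.zpow_mem_zpowers z k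
  have hHc : Nat.card H = 2 := by
    rw [Nat.card_zpowers, hz]
  have hcard : Nat.card (G ⧸ H) * 2 = Nat.card G := by
    rw [← hHc]
    exact (Subgroup.card_eq_card_quotient_mul_card_subgroup H).symm
  have hQ : ∀ t : ℕ, t.Prime → t ∣ Nat.card (G ⧸ H) → t = r ∨ t = s := by
    intro t ht htd
    have htN : t ∣ Nat.card G := htd.trans (Dvd.intro _ hcard)
    by_cases ht2 : t = 2
    · exfalso
      apply h4
      subst ht2
      rw [← hcard]
      have : (4 : ℕ) = 2 * 2 := by norm_num
      rw [this]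
      exact Nat.mul_dvd_mul_right htd 2
    · exact h t ht ht2 htN
  haveI : Group.IsSolvable (G ⧸ H) := solvable_of_primes hr hs hQ
  exact Group.isSolvable_of_ker_le_range H.subtype (QuotientGroup.mk' H) (by
    rw [QuotientGroup.ker_mk', Subgroup.range_subtype])

section main

variable [Finite G]

/-- All orders `≥ 3` that occur have count `v` or `w`. -/
def TwoVals (G : Type u) [Group G] (v w : ℕ) : Prop :=
  ∀ m : ℕ, 3 ≤ m → 0 < cnt G m → cnt G m = v ∨ cnt G m = w

theorem TwoVals.symm {v w : ℕ} (h : TwoVals G v w) : TwoVals G w v :=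
  fun m h3 h0 => (h m h3 h0).symm

theorem not_dvd_self {p : ℕ} (hp : p.Prime) (hpN : p ∣ Nat.card G) : ¬ p ∣ cnt G p := by
  intro h
  have h1 := prime_dvd_cnt_add (G := G) hp hpN 1 (Nat.Prime.one_lt hp |> fun h => by
    intro hd; exact absurd (Nat.le_of_dvd one_pos hd) (by omega))
  rw [cnt_one, mul_one] at h1
  have h2 : p ∣ 1 := (Nat.dvd_add_iff_left h).mpr h1
  exact hp.one_lt.ne' (Nat.dvd_one.mp h2)

theorem one_add_dvd {p : ℕ} (hp : p.Prime) (hpN : p ∣ Nat.card G) : p ∣ 1 + cnt G p := by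
  have h1 := prime_dvd_cnt_add (G := G) hp hpN 1 (Nat.Prime.one_lt hp |> fun h => by
    intro hd; exact absurd (Nat.le_of_dvd one_pos hd) (by omega))
  rwa [cnt_one, mul_one] at h1

theorem odd_prime_three {p : ℕ} (hp : p.Prime) (h2 : p ≠ 2) : 3 ≤ p := by
  have := hp.two_le
  omega

theorem not_dvd_two_mul {p x : ℕ} (hp : p.Prime) (h2 : p ≠ 2) (hx : ¬ p ∣ x) : ¬ p ∣ x + x := by
  rw [← two_mul]
  intro h
  rcases (Nat.Prime.dvd_mul hp).1 h with h | h
  · exact h2 ((Nat.prime_dvd_prime_iff_eq hp Nat.prime_two).1 h)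
  · exact hx h

/-- The sublemma for the first alternative: if `p ∣ w` then neither `m` nor `pm` has value `v`. -/
theorem sub_T1 {p v w : ℕ} (hp : p.Prime) (h2 : p ≠ 2) (hpN : p ∣ Nat.card G)
    (hv : cnt G p = v) (hval : TwoVals G v w) (hpw : p ∣ w) {m : ℕ} (hm3 : 3 ≤ m) (hpm : ¬ p ∣ m) :
    cnt G m ≠ v ∧ cnt G (p * m) ≠ v := by
  have hpv : ¬ p ∣ v := hv ▸ not_dvd_self hp hpN
  have hsum := prime_dvd_cnt_add (G := G) hp hpN m hpm
  have hmm : 3 ≤ p * m := le_trans hm3 (Nat.le_mul_of_pos_left _ hp.pos)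
  have hv0 : 0 < v := Nat.pos_of_ne_zero (fun h => hpv (h ▸ dvd_zero p))
  constructor
  · intro h
    rw [h] at hsum
    by_cases h0 : cnt G (p * m) = 0
    · rw [h0, add_zero] at hsum
      exact hpv hsum
    · rcases hval _ hmm (Nat.pos_of_ne_zero h0) with h1 | h1
      · rw [h1] at hsum
        exact not_dvd_two_mul hp h2 hpv hsum
      · rw [h1] at hsum
        exact hpv ((Nat.dvd_add_iff_left hpw).mpr hsum)
  · intro h
    rw [h] at hsum
    by_cases h0 : cnt G m = 0
    · rw [h0, zero_add] at hsum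
      exact hpv hsum
    · rcases hval _ hm3 (Nat.pos_of_ne_zero h0) with h1 | h1
      · rw [h1] at hsum
        exact not_dvd_two_mul hp h2 hpv hsum
      · rw [h1] at hsum
        exact hpv ((Nat.dvd_add_iff_right hpw).mpr hsum)

/-- First alternative: `p ∣ w`. All orders other than `p, 2p` have value `w`. -/
theorem T1 {p v w : ℕ} (hp : p.Prime) (h2 : p ≠ 2) (hpN : p ∣ Nat.card G)
    (hv : cnt G p = v) (hval : TwoVals G v w) (hpw : p ∣ w) {m : ℕ} (hm3 : 3 ≤ m)
    (hm0 : 0 < cnt G m) (hmp : m ≠ p) (hm2p : m ≠ 2 * p) : cnt G m = w := by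
  have hpv : ¬ p ∣ v := hv ▸ not_dvd_self hp hpN
  rcases hval m hm3 hm0 with h | h
  · exfalso
    by_cases hpm : p ∣ m
    · obtain ⟨m', rfl⟩ := hpm
      by_cases hpm' : p ∣ m'
      · obtain ⟨m'', rfl⟩ := hpm'
        have : p ∣ cnt G (p * (p * m'')) :=
          prime_dvd_cnt_of_sq hp (by rw [← mul_assoc]; exact Dvd.intro _ rfl) (by omega)
        rw [h] at this
        exact hpv this
      · have hm'3 : 3 ≤ m' := by
          have h0 : m' ≠ 0 := by rintro rfl; omega
          have h1 : m' ≠ 1 := by rintro rfl; exact hmp (mul_one p)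
          have h3 : m' ≠ 2 := by rintro rfl; exact hm2p (mul_comm p 2)
          omega
        exact (sub_T1 hp h2 hpN hv hval hpw hm'3 hpm').2 h
    · exact (sub_T1 hp h2 hpN hv hval hpw hm3 hpm).1 h
  · exact h

/-- Second alternative: `p ∤ w`. -/
theorem T2 {p v w : ℕ} (hp : p.Prime) (h2 : p ≠ 2) (hpN : p ∣ Nat.card G)
    (hv : cnt G p = v) (hval : TwoVals G v w) (hpw : ¬ p ∣ w) {m : ℕ} (hm3 : 3 ≤ m)
    (hm0 : 0 < cnt G m) (hpm : ¬ p ∣ m) : 0 < cnt G (p * m) ∧ cnt G (p * m) ≠ cnt G m := by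
  have hpv : ¬ p ∣ v := hv ▸ not_dvd_self hp hpN
  have hnm : ¬ p ∣ cnt G m := by
    rcases hval m hm3 hm0 with h | h <;> rw [h] <;> assumption
  have hsum := prime_dvd_cnt_add (G := G) hp hpN m hpm
  constructor
  · refine Nat.pos_of_ne_zero (fun h => ?_)
    rw [h, add_zero] at hsum
    exact hnm hsum
  · intro h
    rw [h] at hsum
    exact not_dvd_two_mul hp h2 hnm hsum

theorem T2_pow_zero {p v w : ℕ} (hp : p.Prime) (h2 : p ≠ 2) (hpN : p ∣ Nat.card G)
    (hv : cnt G p = v) (hval : TwoVals G v w) (hpw : ¬ p ∣ w) {i : ℕ} (hi : 2 ≤ i) :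
    cnt G (p ^ i) = 0 := by
  have hpv : ¬ p ∣ v := hv ▸ not_dvd_self hp hpN
  by_contra h0
  have h3 : 3 ≤ p ^ i := by
    have h4 := odd_prime_three hp h2
    calc 3 ≤ p := h4
      _ = p ^ 1 := (pow_one p).symm
      _ ≤ p ^ i := Nat.pow_le_pow_right hp.pos (by omega)
  have hd : p ∣ cnt G (p ^ i) := prime_dvd_cnt_of_sq hp
    (by rw [← pow_two]; exact pow_dvd_pow p hi) (pow_pos hp.pos i).ne'
  rcases hval _ h3 (Nat.pos_of_ne_zero h0) with h | h <;> rw [h] at hd <;> contradiction

/-- If higher `p`-power orders do not occur then every `p ^ k ∣ |G|` divides `1 + cnt p`. -/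
theorem pow_dvd_one_add {p k : ℕ} (hp : p.Prime) (h0 : ∀ i, 2 ≤ i → cnt G (p ^ i) = 0)
    (hk : p ^ k ∣ Nat.card G) (hk0 : 1 ≤ k) : p ^ k ∣ 1 + cnt G p := by
  have h1 : p ^ k ∣ (p ^ k).gcd (Nat.card G) := Nat.dvd_gcd dvd_rfl hk
  have h2 := h1.trans (gcd_dvd_sum_cnt (G := G) (M := p ^ k) (pow_pos hp.pos k))
  rw [Nat.sum_divisors_prime_pow hp] at h2
  have h3 : ∑ x ∈ Finset.range (k + 1), cnt G (p ^ x) = 1 + cnt G p := by
    obtain ⟨j, rfl⟩ : ∃ j, k = j + 1 := ⟨k - 1, by omega⟩
    rw [Finset.sum_range_succ']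
    simp only [pow_zero, cnt_one]
    rw [Finset.sum_range_succ']
    simp only [zero_add, pow_one]
    rw [Finset.sum_eq_zero (fun x _ => h0 (x + 1 + 1) (by omega))]
    omega
  rwa [h3] at h2

/-- The step: from `T1` at `p` and any other odd prime `q`. -/
theorem stepC {p q w : ℕ} (hp : p.Prime) (hq : q.Prime) (hp2 : p ≠ 2) (hq2 : q ≠ 2) (hpq : p ≠ q)
    (hpN : p ∣ Nat.card G) (hqN : q ∣ Nat.card G) (hw : w ≠ cnt G p)
    (hval : TwoVals G (cnt G p) w) (hpw : p ∣ w) {m : ℕ} (hm3 : 3 ≤ m) (hqm : ¬ q ∣ m)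
    (hm0 : 0 < cnt G m) : m = p ∨ m = 2 * p := by
  by_contra hcon
  push Not at hcon
  obtain ⟨hmp, hm2p⟩ := hcon
  have hq2p : q ≠ 2 * p := by
    intro h
    have : 2 ∣ q := Dvd.intro _ h.symm
    exact hq2 ((Nat.prime_dvd_prime_iff_eq Nat.prime_two hq).1 this).symm
  have hnq : cnt G q = w :=
    T1 hp hp2 hpN rfl hval hpw (odd_prime_three hq hq2) (cnt_prime_pos hq hqN) hpq.symm hq2p
  have hnm : cnt G m = w := T1 hp hp2 hpN rfl hval hpw hm3 hm0 hmp hm2p
  have hval' : TwoVals G (cnt G q) (cnt G p) := by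
    rw [hnq]; exact hval.symm
  by_cases hqv : q ∣ cnt G p
  · have hmq : m ≠ q := by
      rintro rfl
      exact hqm dvd_rfl
    have hm2q : m ≠ 2 * q := by
      rintro rfl
      exact hqm (Dvd.intro_left _ rfl)
    have := T1 hq hq2 hqN rfl hval' hqv hm3 hm0 hmq hm2q
    rw [hnm] at this
    exact hw this
  · obtain ⟨h1, h2⟩ := T2 hq hq2 hqN rfl hval' hqv hm3 hm0 hqm
    apply h2
    rw [hnm]
    have h3 : 3 ≤ q * m := le_trans hm3 (Nat.le_mul_of_pos_left _ hq.pos)
    refine T1 hp hp2 hpN rfl hval hpw h3 h1 ?_ ?_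
    · intro h
      have : q ∣ p := Dvd.intro _ h
      exact hpq ((Nat.prime_dvd_prime_iff_eq hq hp).1 this).symm
    · intro h
      have : q ∣ 2 * p := Dvd.intro _ h
      rcases (Nat.Prime.dvd_mul hq).1 this with h5 | h5
      · exact hq2 ((Nat.prime_dvd_prime_iff_eq hq Nat.prime_two).1 h5)
      · exact hpq ((Nat.prime_dvd_prime_iff_eq hq hp).1 h5).symm

theorem cnt_four_pos (h2 : cnt G 2 ≤ 1) (h4 : 4 ∣ Nat.card G) : 0 < cnt G 4 := by
  have hd := four_dvd_sum (G := G) h4
  by_contra h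
  have h0 : cnt G 4 = 0 := by omega
  rw [h0] at hd
  have := Nat.le_of_dvd (by omega) hd
  omega
where
  four_dvd_sum {G : Type u} [Group G] [Finite G] (h4 : 4 ∣ Nat.card G) :
      4 ∣ 1 + cnt G 2 + cnt G 4 := by
    have h1 : (4 : ℕ) ∣ (4 : ℕ).gcd (Nat.card G) := Nat.dvd_gcd dvd_rfl h4
    have h2 := h1.trans (gcd_dvd_sum_cnt (G := G) (M := 4) (by norm_num))
    have h3 : Nat.divisors 4 = {1, 2, 4} := by decide
    rw [h3] at h2
    have h5 : ∑ x ∈ ({1, 2, 4} : Finset ℕ), cnt G x = 1 + cnt G 2 + cnt G 4 := by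
      rw [Finset.sum_insert (by decide), Finset.sum_insert (by decide), Finset.sum_singleton,
        cnt_one, add_assoc]
    rwa [h5] at h2

theorem four_dvd_sum' (h4 : 4 ∣ Nat.card G) : 4 ∣ 1 + cnt G 2 + cnt G 4 :=
  cnt_four_pos.four_dvd_sum h4

/-- A prime divisor other than `2` is odd, hence `≥ 3`: the case with many involutions. -/
theorem solvable_caseA {c : ℕ} (h22 : 2 ≤ cnt G 2)
    (hc : ∀ m : ℕ, 3 ≤ m → 0 < cnt G m → cnt G m = c) : Group.IsSolvable G := by
  classical
  by_cases hno : ∀ p q : ℕ, p.Prime → q.Prime → p ≠ 2 → q ≠ 2 → p ∣ Nat.card G → q ∣ Nat.card G → p = q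
  · by_cases hex : ∃ p : ℕ, p.Prime ∧ p ≠ 2 ∧ p ∣ Nat.card G
    · obtain ⟨p, hp, hp2, hpN⟩ := hex
      refine solvable_of_primes Nat.prime_two hp (fun t ht htd => ?_)
      by_cases ht2 : t = 2
      · exact Or.inl ht2
      · exact Or.inr (hno t p ht hp ht2 hp2 htd hpN)
    · refine solvable_of_primes Nat.prime_two Nat.prime_three (fun t ht htd => ?_)
      by_cases ht2 : t = 2
      · exact Or.inl ht2
      · exact absurd ⟨t, ht, ht2, htd⟩ hex
  · exfalso
    push Not at hno
    obtain ⟨p, q, hp, hq, hp2, hq2, hpN, hqN, hpq⟩ := hno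
    -- `D` the odd part
    set N := Nat.card G with hN
    have hN0 : N ≠ 0 := Nat.card_pos.ne'
    set D := N / 2 ^ N.factorization 2 with hD
    have hDN : D ∣ N := Nat.ordCompl_dvd N 2
    have h2D : ¬ 2 ∣ D := Nat.not_dvd_ordCompl Nat.prime_two hN0
    have hD0 : 0 < D := Nat.ordCompl_pos 2 hN0
    -- every odd prime power
    have hkey : ∀ (r k : ℕ), r.Prime → r ^ k ∣ D → r ^ k ∣ 1 + c := by
      intro r k hr hrk
      by_cases hk : k = 0
      · subst hk; simp
      have hrD : r ∣ D := (dvd_pow_self r hk).trans hrk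
      have hr2 : r ≠ 2 := by
        rintro rfl
        exact h2D hrD
      have hrN : r ∣ N := hrD.trans hDN
      have hnr : cnt G r = c := hc r (odd_prime_three hr hr2) (cnt_prime_pos hr hrN)
      have h1 : r ∣ 1 + c := hnr ▸ one_add_dvd hr hrN
      have h0 : ∀ i, 2 ≤ i → cnt G (r ^ i) = 0 := by
        intro i hi
        by_contra h0
        have h3 : 3 ≤ r ^ i := by
          calc 3 ≤ r := odd_prime_three hr hr2
            _ = r ^ 1 := (pow_one r).symm
            _ ≤ r ^ i := Nat.pow_le_pow_right hr.pos (by omega)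
        have hd : r ∣ cnt G (r ^ i) := prime_dvd_cnt_of_sq hr
          (by rw [← pow_two]; exact pow_dvd_pow r hi) (pow_pos hr.pos i).ne'
        rw [hc _ h3 (Nat.pos_of_ne_zero h0)] at hd
        have : r ∣ 1 := (Nat.dvd_add_iff_left hd).mpr h1
        exact hr.one_lt.ne' (Nat.dvd_one.mp this)
      rw [← hnr]
      exact pow_dvd_one_add hr h0 (hrk.trans hDN) (Nat.pos_of_ne_zero hk)
    have hD1c : D ∣ 1 + c := by
      rw [Nat.dvd_iff_prime_pow_dvd_dvd]
      intro r k hr hrk
      exact hkey r k hr hrk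
    -- the Frobenius count for `D`
    have hF : D ∣ ∑ d ∈ D.divisors, cnt G d := by
      have h1 : D ∣ D.gcd (Nat.card G) := Nat.dvd_gcd dvd_rfl hDN
      exact h1.trans (gcd_dvd_sum_cnt hD0)
    let S := D.divisors.filter (fun d => d ≠ 1 ∧ 0 < cnt G d)
    have hsum : ∑ d ∈ D.divisors, cnt G d = 1 + S.card * c := by
      have h1 : (1 : ℕ) ∈ D.divisors := Nat.one_mem_divisors.mpr hD0.ne'
      rw [← Finset.add_sum_erase _ _ h1, cnt_one]
      congr 1
      have h3 : ∀ d ∈ S, cnt G d = c := by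
        intro d hd
        obtain ⟨hd1, hd2, hd3⟩ := Finset.mem_filter.mp hd
        refine hc d ?_ hd3
        have hd4 : d ∣ D := (Nat.mem_divisors.mp hd1).1
        have hd5 : d ≠ 0 := by
          rintro rfl
          exact hD0.ne' (Nat.eq_zero_of_zero_dvd hd4)
        have hd6 : d ≠ 2 := by
          rintro rfl
          exact h2D hd4
        omega
      have h2 : ∑ d ∈ D.divisors.erase 1, cnt G d = ∑ d ∈ S, cnt G d := by
        symm
        refine Finset.sum_subset (fun d hd => ?_) (fun d hd hd' => ?_)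
        · obtain ⟨hd1, hd2, hd3⟩ := Finset.mem_filter.mp hd
          exact Finset.mem_erase.mpr ⟨hd2, hd1⟩
        · obtain ⟨hd1, hd2⟩ := Finset.mem_erase.mp hd
          by_contra h0
          exact hd' (Finset.mem_filter.mpr ⟨hd2, hd1, Nat.pos_of_ne_zero h0⟩)
      rw [h2, Finset.sum_congr rfl h3, Finset.sum_const, smul_eq_mul]
    rw [hsum] at hF
    -- `D ∣ S.card - 1`
    have hpS : p ∈ S := by
      refine Finset.mem_filter.mpr ⟨?_, hp.one_lt.ne', cnt_prime_pos hp hpN⟩
      refine Nat.mem_divisors.mpr ⟨?_, hD0.ne'⟩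
      exact (Nat.Coprime.dvd_of_dvd_mul_left
        (Nat.Coprime.pow_right _ ((Nat.coprime_primes hp Nat.prime_two).2 hp2))
        (by rw [Nat.ordProj_mul_ordCompl_eq_self]; exact hpN) : p ∣ D)
    have hqS : q ∈ S := by
      refine Finset.mem_filter.mpr ⟨?_, hq.one_lt.ne', cnt_prime_pos hq hqN⟩
      refine Nat.mem_divisors.mpr ⟨?_, hD0.ne'⟩
      exact (Nat.Coprime.dvd_of_dvd_mul_left
        (Nat.Coprime.pow_right _ ((Nat.coprime_primes hq Nat.prime_two).2 hq2))
        (by rw [Nat.ordProj_mul_ordCompl_eq_self]; exact hqN) : q ∣ D)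
    have hcard2 : 2 ≤ S.card := by
      have : ({p, q} : Finset ℕ) ⊆ S := by
        intro x hx
        simp only [Finset.mem_insert, Finset.mem_singleton] at hx
        rcases hx with rfl | rfl <;> assumption
      calc 2 = ({p, q} : Finset ℕ).card := (Finset.card_pair hpq).symm
        _ ≤ S.card := Finset.card_le_card this
    have hcardle : S.card ≤ D - 1 := by
      have : S ⊆ Finset.Icc 2 D := by
        intro d hd
        obtain ⟨hd1, hd2, hd3⟩ := Finset.mem_filter.mp hd
        have hd4 : d ∣ D := (Nat.mem_divisors.mp hd1).1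
        have hd5 : d ≠ 0 := by
          rintro rfl
          exact hD0.ne' (Nat.eq_zero_of_zero_dvd hd4)
        refine Finset.mem_Icc.mpr ⟨by omega, Nat.le_of_dvd hD0 hd4⟩
      have h1 := Finset.card_le_card this
      rw [Nat.card_Icc] at h1
      omega
    have hdiv : D ∣ S.card - 1 := by
      have h1 : D ∣ S.card * (1 + c) := Dvd.dvd.mul_left hD1c _
      have h2 : S.card * (1 + c) = (S.card - 1) + (1 + S.card * c) := by
        have : S.card * (1 + c) = S.card + S.card * c := by ring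
        omega
      rw [h2] at h1
      exact (Nat.dvd_add_iff_left hF).mpr h1
    have := Nat.le_of_dvd (by omega) hdiv
    omega

/-- The case of at most one involution, when some odd prime satisfies the first alternative. -/
theorem solvable_of_T1 {r s w : ℕ} (hr : r.Prime) (hs : s.Prime) (hr2 : r ≠ 2) (hs2 : s ≠ 2)
    (hrs : r ≠ s) (hrN : r ∣ Nat.card G) (hsN : s ∣ Nat.card G) (hw : w ≠ cnt G r)
    (hval : TwoVals G (cnt G r) w) (hrw : r ∣ w) (h21 : cnt G 2 ≤ 1) : Group.IsSolvable G := by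
  have hC := @stepC G _ _ r s w hr hs hr2 hs2 hrs hrN hsN hw hval hrw
  have h4 : ¬ 4 ∣ Nat.card G := by
    intro h4
    have h40 := cnt_four_pos h21 h4
    have hs4 : ¬ s ∣ 4 := by
      intro h
      have : s ∣ 2 * 2 := by simpa using h
      rcases (Nat.Prime.dvd_mul hs).1 this with h | h <;>
        exact hs2 ((Nat.prime_dvd_prime_iff_eq hs Nat.prime_two).1 h)
    rcases hC (by norm_num : 3 ≤ 4) hs4 h40 with h | h
    · rw [← h] at hr
      exact absurd hr (by norm_num)
    · have : r = 2 := by omega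
      exact hr2 this
  have hprimes : ∀ t : ℕ, t.Prime → t ≠ 2 → t ∣ Nat.card G → t = r ∨ t = s := by
    intro t ht ht2 htN
    by_cases hts : t = s
    · exact Or.inr hts
    · left
      have hst : ¬ s ∣ t := fun h => hts ((Nat.prime_dvd_prime_iff_eq hs ht).1 h).symm
      rcases hC (odd_prime_three ht ht2) hst (cnt_prime_pos ht htN) with h | h
      · exact h
      · exfalso
        have : 2 ∣ t := Dvd.intro _ h.symm
        exact ht2 ((Nat.prime_dvd_prime_iff_eq Nat.prime_two ht).1 this).symm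
  by_cases h2N : 2 ∣ Nat.card G
  · have h20 := cnt_prime_pos Nat.prime_two h2N
    have h1 : cnt G 2 = 1 := by omega
    exact solvable_of_two_mul hr hs h1 h4 hprimes
  · refine solvable_of_primes hr hs (fun t ht htN => hprimes t ht ?_ htN)
    rintro rfl
    exact h2N htN

/-- The case of at most one involution, when all odd primes satisfy the second alternative:
impossible as soon as there are two of them. -/
theorem false_of_T2 {p q : ℕ} (hp : p.Prime) (hq : q.Prime) (hp2 : p ≠ 2) (hq2 : q ≠ 2)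
    (hpq : p ≠ q) (hpN : p ∣ Nat.card G) (hqN : q ∣ Nat.card G) (h21 : cnt G 2 ≤ 1)
    (hT : ∀ r : ℕ, r.Prime → r ≠ 2 → r ∣ Nat.card G →
      ∃ w, w ≠ cnt G r ∧ TwoVals G (cnt G r) w ∧ ¬ r ∣ w) : False := by
  -- all odd primes have the same count
  have hsame : ∀ r s : ℕ, r.Prime → s.Prime → r ≠ 2 → s ≠ 2 → r ≠ s → r ∣ Nat.card G →
      s ∣ Nat.card G → cnt G r = cnt G s := by
    intro r s hr hs hr2 hs2 hrs hrN hsN
    obtain ⟨w, hw, hval, hrw⟩ := hT r hr hr2 hrN
    obtain ⟨w', hw', hval', hrw'⟩ := hT s hs hs2 hsN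
    have hsr : ¬ s ∣ r := fun h => hrs ((Nat.prime_dvd_prime_iff_eq hs hr).1 h).symm
    have hrs' : ¬ r ∣ s := fun h => hrs ((Nat.prime_dvd_prime_iff_eq hr hs).1 h)
    obtain ⟨h1, h2⟩ := T2 hr hr2 hrN rfl hval hrw (odd_prime_three hs hs2) (cnt_prime_pos hs hsN) hrs'
    obtain ⟨h3, h4⟩ := T2 hs hs2 hsN rfl hval' hrw' (odd_prime_three hr hr2) (cnt_prime_pos hr hrN) hsr
    rw [mul_comm] at h3 h4
    by_contra hne
    have h5 : cnt G s = w := by
      rcases hval s (odd_prime_three hs hs2) (cnt_prime_pos hs hsN) with h | h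
      · exact absurd h.symm hne
      · exact h
    have h3' : 3 ≤ r * s := by
      have := odd_prime_three hs hs2
      exact le_trans this (Nat.le_mul_of_pos_left _ hr.pos)
    rcases hval _ h3' h1 with h | h
    · exact h4 h
    · exact h2 (h.trans h5.symm)
  obtain ⟨w, hw, hval, hpw⟩ := hT p hp hp2 hpN
  have hnq : cnt G q = cnt G p := (hsame p q hp hq hp2 hq2 hpq hpN hqN).symm
  obtain ⟨w', hw', hval', hqw'⟩ := hT q hq hq2 hqN
  have hqp : ¬ q ∣ p := fun h => hpq ((Nat.prime_dvd_prime_iff_eq hq hp).1 h).symm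
  have hpq' : ¬ p ∣ q := fun h => hpq ((Nat.prime_dvd_prime_iff_eq hp hq).1 h)
  have h3p := odd_prime_three hp hp2
  have h3q := odd_prime_three hq hq2
  -- 4 does not divide
  have h4 : ¬ 4 ∣ Nat.card G := by
    intro h4
    have h40 := cnt_four_pos h21 h4
    have hp4 : ¬ p ∣ 4 := by
      intro h
      have : p ∣ 2 * 2 := by simpa using h
      rcases (Nat.Prime.dvd_mul hp).1 this with h | h <;>
        exact hp2 ((Nat.prime_dvd_prime_iff_eq hp Nat.prime_two).1 h)
    have hq4 : ¬ q ∣ 4 := by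
      intro h
      have : q ∣ 2 * 2 := by simpa using h
      rcases (Nat.Prime.dvd_mul hq).1 this with h | h <;>
        exact hq2 ((Nat.prime_dvd_prime_iff_eq hq Nat.prime_two).1 h)
    obtain ⟨h1, h2⟩ := T2 hp hp2 hpN rfl hval hpw (by norm_num : 3 ≤ 4) h40 hp4
    have h3m : 3 ≤ p * 4 := by omega
    have hqm : ¬ q ∣ p * 4 := by
      intro h
      rcases (Nat.Prime.dvd_mul hq).1 h with h | h
      · exact hqp h
      · exact hq4 h
    have hval2 : TwoVals G (cnt G q) w' := hval'
    obtain ⟨h5, h6⟩ := T2 hq hq2 hqN rfl hval' hqw' h3m h1 hqm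
    -- all three counts are among two values
    have h7 : cnt G (q * (p * 4)) = cnt G 4 := by
      have h3m' : 3 ≤ q * (p * 4) := le_trans h3m (Nat.le_mul_of_pos_left _ hq.pos)
      rcases hval _ h3m' h5 with a | a <;> rcases hval _ h3m h1 with b | b <;>
        rcases hval _ (by norm_num : 3 ≤ 4) h40 with c | c <;> omega
    have h8 : 4 ∣ Nat.totient (p * 4) := by
      have hc : Nat.Coprime p 4 := by
        have : Nat.Coprime p 2 := (Nat.coprime_primes hp Nat.prime_two).2 hp2
        exact Nat.Coprime.pow_right 2 this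
      rw [Nat.totient_mul hc]
      have h9 : Nat.totient 4 = 2 := by decide
      rw [h9]
      have h10 : 2 ∣ Nat.totient p := (Nat.totient_even (by omega)).two_dvd
      exact Nat.mul_dvd_mul h10 dvd_rfl
    have h9 : 4 ∣ cnt G 4 := by
      rw [← h7]
      exact (h8.trans (Nat.totient_dvd_of_dvd (Dvd.intro_left _ rfl))).trans (totient_dvd_cnt _)
    have h10 := four_dvd_sum' (G := G) h4
    have h2N : 2 ∣ Nat.card G := (by norm_num : 2 ∣ 4).trans h4
    have h20 := cnt_prime_pos Nat.prime_two h2N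
    have h11 : cnt G 2 = 1 := by omega
    rw [h11] at h10
    omega
  -- the odd part divides `1 + cnt p`
  set N := Nat.card G with hN
  have hN0 : N ≠ 0 := Nat.card_pos.ne'
  set D := N / 2 ^ N.factorization 2 with hD
  have hDN : D ∣ N := Nat.ordCompl_dvd N 2
  have h2D : ¬ 2 ∣ D := Nat.not_dvd_ordCompl Nat.prime_two hN0
  have hD0 : 0 < D := Nat.ordCompl_pos 2 hN0
  have hD1 : D ∣ 1 + cnt G p := by
    rw [Nat.dvd_iff_prime_pow_dvd_dvd]
    intro r k hr hrk
    by_cases hk : k = 0
    · subst hk; simp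
    have hrD : r ∣ D := (dvd_pow_self r hk).trans hrk
    have hr2 : r ≠ 2 := by
      rintro rfl
      exact h2D hrD
    have hrN : r ∣ N := hrD.trans hDN
    obtain ⟨w₁, hw₁, hval₁, hrw₁⟩ := hT r hr hr2 hrN
    have h0 : ∀ i, 2 ≤ i → cnt G (r ^ i) = 0 :=
      fun i hi => T2_pow_zero hr hr2 hrN rfl hval₁ hrw₁ hi
    have h1 := pow_dvd_one_add hr h0 (hrk.trans hDN) (Nat.pos_of_ne_zero hk)
    by_cases hrp : r = p
    · rw [hrp] at h1 ⊢
      exact h1
    · rw [hsame r p hr hp hr2 hp2 hrp hrN hpN] at h1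
      exact h1
  have hDle : D ≤ 1 + cnt G p := Nat.le_of_dvd (by omega) hD1
  -- the count
  have hpqm : 0 < cnt G (p * q) :=
    (T2 hp hp2 hpN rfl hval hpw h3q (cnt_prime_pos hq hqN) hpq').1
  have hbound : 1 + cnt G 2 + cnt G p + cnt G q + cnt G (p * q) ≤ N := by
    have hne1 : p * q ≠ p := by
      intro h
      have : q = 1 := by
        have h1 : p * q = p * 1 := by rw [h, mul_one]
        exact Nat.eq_of_mul_eq_mul_left hp.pos h1
      omega
    have hne2 : p * q ≠ q := by
      intro h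
      have : p = 1 := by
        have h1 : p * q = 1 * q := by rw [h, one_mul]
        exact Nat.eq_of_mul_eq_mul_right hq.pos h1
      omega
    have hne3 : p * q ≠ 2 := by
      have : 9 ≤ p * q := Nat.mul_le_mul h3p h3q
      omega
    have hne4 : p * q ≠ 1 := by
      have : 9 ≤ p * q := Nat.mul_le_mul h3p h3q
      omega
    have h1 := sum_cnt_le (G := G) ({1, 2, p, q, p * q} : Finset ℕ)
    rw [Finset.sum_insert (by
        simp only [Finset.mem_insert, Finset.mem_singleton]
        omega),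
      Finset.sum_insert (by
        simp only [Finset.mem_insert, Finset.mem_singleton]
        omega),
      Finset.sum_insert (by
        simp only [Finset.mem_insert, Finset.mem_singleton]
        omega),
      Finset.sum_insert (by
        simp only [Finset.mem_singleton]
        omega),
      Finset.sum_singleton, cnt_one] at h1
    omega
  rw [hnq] at hbound
  by_cases h2N : 2 ∣ N
  · have h20 := cnt_prime_pos Nat.prime_two h2N
    have h1 : cnt G 2 = 1 := by omega
    have hfac : N.factorization 2 = 1 := by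
      have h5 : N.factorization 2 ≠ 0 := by
        intro h
        have := (Nat.Prime.dvd_iff_one_le_factorization Nat.prime_two hN0).1 h2N
        omega
      by_contra h6
      have h7 : 2 ≤ N.factorization 2 := by omega
      exact h4 (((Nat.pow_dvd_pow 2 h7).trans (Nat.ordProj_dvd N 2)))
    have hND : N = 2 * D := by
      have := Nat.ordProj_mul_ordCompl_eq_self N 2
      rw [hfac, pow_one] at this
      rw [hD, hfac, pow_one]
      exact this.symm
    omega
  · have h20 : cnt G 2 = 0 := cnt_eq_zero_of_not_dvd h2N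
    have hfac : N.factorization 2 = 0 := Nat.factorization_eq_zero_of_not_dvd h2N
    have hND : N = D := by
      rw [hD, hfac, pow_zero, Nat.div_one]
    omega

/-- The arithmetic heart: at most three values of the counting function. -/
theorem solvable_of_values {a b : ℕ} (hab : a ≠ b)
    (hs : ∀ m : ℕ, 0 < cnt G m → cnt G m = 1 ∨ cnt G m = a ∨ cnt G m = b) :
    Group.IsSolvable G := by
  by_cases h22 : 2 ≤ cnt G 2
  · -- many involutions
    have h2N : 2 ∣ Nat.card G := by
      by_contra h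
      rw [cnt_eq_zero_of_not_dvd h] at h22
      omega
    have hodd : ¬ 2 ∣ cnt G 2 := by
      intro hd
      have h1 := one_add_dvd Nat.prime_two h2N
      have : 2 ∣ 1 := (Nat.dvd_add_iff_left hd).mpr h1
      omega
    have hv : ∃ c, ∀ m : ℕ, 3 ≤ m → 0 < cnt G m → cnt G m = c := by
      rcases hs 2 (by omega) with h | h | h
      · omega
      · refine ⟨b, fun m h3 h0 => ?_⟩
        have he := even_cnt (G := G) h3
        rcases hs m h0 with h' | h' | h'
        · omega
        · rw [h', ← h] at he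
          exact absurd he hodd
        · exact h'
      · refine ⟨a, fun m h3 h0 => ?_⟩
        have he := even_cnt (G := G) h3
        rcases hs m h0 with h' | h' | h'
        · omega
        · exact h'
        · rw [h', ← h] at he
          exact absurd he hodd
    obtain ⟨c, hc⟩ := hv
    exact solvable_caseA h22 hc
  · have h21 : cnt G 2 ≤ 1 := by omega
    have hval : ∀ m : ℕ, 3 ≤ m → 0 < cnt G m → cnt G m = a ∨ cnt G m = b := by
      intro m h3 h0
      have he := even_cnt (G := G) h3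
      rcases hs m h0 with h' | h' | h'
      · omega
      · exact Or.inl h'
      · exact Or.inr h'
    by_cases hno : ∀ p q : ℕ, p.Prime → q.Prime → p ≠ 2 → q ≠ 2 → p ∣ Nat.card G → q ∣ Nat.card G → p = q
    · by_cases hex : ∃ p : ℕ, p.Prime ∧ p ≠ 2 ∧ p ∣ Nat.card G
      · obtain ⟨p, hp, hp2, hpN⟩ := hex
        refine solvable_of_primes Nat.prime_two hp (fun t ht htd => ?_)
        by_cases ht2 : t = 2
        · exact Or.inl ht2
        · exact Or.inr (hno t p ht hp ht2 hp2 htd hpN)
      · refine solvable_of_primes Nat.prime_two Nat.prime_three (fun t ht htd => ?_)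
        by_cases ht2 : t = 2
        · exact Or.inl ht2
        · exact absurd ⟨t, ht, ht2, htd⟩ hex
    · push Not at hno
      obtain ⟨p, q, hp, hq, hp2, hq2, hpN, hqN, hpq⟩ := hno
      -- for each odd prime the other value
      have hother : ∀ r : ℕ, r.Prime → r ≠ 2 → r ∣ Nat.card G →
          ∃ w, w ≠ cnt G r ∧ TwoVals G (cnt G r) w := by
        intro r hr hr2 hrN
        rcases hval r (odd_prime_three hr hr2) (cnt_prime_pos hr hrN) with h | h
        · refine ⟨b, by rw [h]; exact hab.symm, fun m h3 h0 => ?_⟩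
          rw [h]
          exact hval m h3 h0
        · refine ⟨a, by rw [h]; exact hab, fun m h3 h0 => ?_⟩
          rw [h]
          exact (hval m h3 h0).symm
      by_cases hT : ∃ r : ℕ, r.Prime ∧ r ≠ 2 ∧ r ∣ Nat.card G ∧
          ∃ w, w ≠ cnt G r ∧ TwoVals G (cnt G r) w ∧ r ∣ w
      · obtain ⟨r, hr, hr2, hrN, w, hw, hvalr, hrw⟩ := hT
        by_cases hrp : r = p
        · subst hrp
          exact solvable_of_T1 hr hq hr2 hq2 hpq hrN hqN hw hvalr hrw h21
        · exact solvable_of_T1 hr hp hr2 hp2 hrp hrN hpN hw hvalr hrw h21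
      · exfalso
        push Not at hT
        refine false_of_T2 hp hq hp2 hq2 hpq hpN hqN h21 (fun r hr hr2 hrN => ?_)
        obtain ⟨w, hw, hv⟩ := hother r hr hr2 hrN
        exact ⟨w, hw, hv, hT r hr hr2 hrN w hw hv⟩

theorem solvable_of_ncard_eq_three
    (h : (((fun m : ℕ => Nat.card {g : G // orderOf g = m}) '' Set.range (orderOf : G → ℕ))).ncard = 3) :
    Group.IsSolvable G := by
  obtain ⟨x, y, z, hxy, hxz, hyz, hS⟩ := Set.ncard_eq_three.mp h
  have hmem : ∀ m : ℕ, 0 < cnt G m → cnt G m = x ∨ cnt G m = y ∨ cnt G m = z := by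
    intro m h0
    obtain ⟨g, hg⟩ := cnt_pos_iff.mp h0
    have : cnt G m ∈ ((fun m : ℕ => Nat.card {g : G // orderOf g = m}) '' Set.range (orderOf : G → ℕ)) :=
      ⟨m, ⟨g, hg⟩, rfl⟩
    rw [hS] at this
    simpa using this
  have h1 : (1 : ℕ) = x ∨ (1 : ℕ) = y ∨ (1 : ℕ) = z := by
    have := hmem 1 (by rw [cnt_one]; exact one_pos)
    rwa [cnt_one] at this
  rcases h1 with rfl | rfl | rfl
  · exact solvable_of_values hyz hmem
  · exact solvable_of_values hxz (fun m hm => by
      rcases hmem m hm with h | h | h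
      · exact Or.inr (Or.inl h)
      · exact Or.inl h
      · exact Or.inr (Or.inr h))
  · exact solvable_of_values hxy (fun m hm => by
      rcases hmem m hm with h | h | h
      · exact Or.inr (Or.inl h)
      · exact Or.inr (Or.inr h)
      · exact Or.inl h)

end main

end Cfsg.Agent.Lib.NSE.ThreeVals
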